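/-
The hexacode over an abstract field with four elements: comparison with explicit tables.
-/
import Cfsg.Prelude.Def_SporadicCombinatorics

set_option autoImplicit false
set_option linter.unusedSectionVars false

namespace Cfsg.Agent.Lib.Hexa

open Cfsg Finset

/-- Addition table: coordinates 0, 1, ω, ω + 1. -/
def addT (a b : Fin 4) : Fin 4 :=
  (![![0, 1, 2, 3], ![1, 0, 3, 2], ![2, 3, 0, 1], ![3, 2, 1, 0]] : Fin 4 → Fin 4 → Fin 4) a b

/-- Multiplication table: coordinates 0, 1, ω, ω + 1. -/
def mulT (a b : Fin 4) : Fin 4 :=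
  (![![0, 0, 0, 0], ![0, 1, 2, 3], ![0, 2, 3, 1], ![0, 3, 1, 2]] : Fin 4 → Fin 4 → Fin 4) a b

section field

variable {F : Type*} [Field F] (ω : F)

/-- The comparison map. -/
def emb : Fin 4 → F := ![0, 1, ω, ω + 1]

lemma two_eq_zero [Fintype F] (hF : Fintype.card F = 4) : (2 : F) = 0 := by
  have h1 : Nat.card F • (1 : F) = 0 := card_nsmul_eq_zero'
  rw [Nat.card_eq_fintype_card, hF] at h1
  have h2 : (2 : F) * 2 = 0 := by
    have : (4 : ℕ) • (1 : F) = 2 * 2 := by norm_num
    rw [← this]
    exact h1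
  simpa using h2

variable {ω}
variable (h2 : (2 : F) = 0) (hω : ω ^ 2 + ω + 1 = 0)
include h2 hω

lemma sq_eq : ω ^ 2 = ω + 1 := by linear_combination hω - (ω + 1) * h2

lemma emb_add : ∀ a b, emb ω (addT a b) = emb ω a + emb ω b := by
  intro a b
  fin_cases a <;> fin_cases b
  · change (0 : F) = 0 + 0; ring
  · change (1 : F) = 0 + 1; ring
  · change ω = 0 + ω; ring
  · change ω + 1 = 0 + (ω + 1); ring
  · change (1 : F) = 1 + 0; ring
  · change (0 : F) = 1 + 1; linear_combination -h2
  · change ω + 1 = 1 + ω; ring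
  · change ω = 1 + (ω + 1); linear_combination -h2
  · change ω = ω + 0; ring
  · change ω + 1 = ω + 1; ring
  · change (0 : F) = ω + ω; linear_combination -ω * h2
  · change (1 : F) = ω + (ω + 1); linear_combination -ω * h2
  · change ω + 1 = ω + 1 + 0; ring
  · change ω = ω + 1 + 1; linear_combination -h2
  · change (1 : F) = ω + 1 + ω; linear_combination -ω * h2
  · change (0 : F) = ω + 1 + (ω + 1); linear_combination -(ω + 1) * h2

lemma emb_mul : ∀ a b, emb ω (mulT a b) = emb ω a * emb ω b := by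
  intro a b
  fin_cases a <;> fin_cases b
  · change (0 : F) = 0 * 0; ring
  · change (0 : F) = 0 * 1; ring
  · change (0 : F) = 0 * ω; ring
  · change (0 : F) = 0 * (ω + 1); ring
  · change (0 : F) = 1 * 0; ring
  · change (1 : F) = 1 * 1; ring
  · change ω = 1 * ω; ring
  · change ω + 1 = 1 * (ω + 1); ring
  · change (0 : F) = ω * 0; ring
  · change ω = ω * 1; ring
  · change ω + 1 = ω * ω; linear_combination -hω + (ω + 1) * h2
  · change (1 : F) = ω * (ω + 1); linear_combination -hω + h2
  · change (0 : F) = (ω + 1) * 0; ring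
  · change ω + 1 = (ω + 1) * 1; ring
  · change (1 : F) = (ω + 1) * ω; linear_combination -hω + h2
  · change ω = (ω + 1) * (ω + 1); linear_combination -hω

lemma omega_ne_zero : ω ≠ 0 := by
  rintro rfl
  have : (1 : F) = 0 := by linear_combination hω
  exact one_ne_zero this

lemma omega_ne_one : ω ≠ 1 := by
  rintro rfl
  have : (1 : F) = 0 := by linear_combination hω - h2
  exact one_ne_zero this

lemma emb_injective : Function.Injective (emb ω) := by
  have h0 := omega_ne_zero h2 hω
  have h1 := omega_ne_one h2 hω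
  have h3 : ω + 1 ≠ 0 := fun h => h1 (by linear_combination h - h2)
  have h4 : ω + 1 ≠ 1 := fun h => h0 (by linear_combination h)
  have h5 : ω + 1 ≠ ω := fun h => one_ne_zero (α := F) (by linear_combination h)
  intro a b hab
  fin_cases a <;> fin_cases b <;> first | rfl | (exfalso; change _ = _ at hab; first | exact h0 hab | exact h0 hab.symm | exact h1 hab | exact h1 hab.symm | exact h3 hab | exact h3 hab.symm | exact h4 hab | exact h4 hab.symm | exact h5 hab | exact h5 hab.symm | exact one_ne_zero hab | exact one_ne_zero hab.symm)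

lemma emb_zero_iff {a : Fin 4} : emb ω a = 0 ↔ a = 0 := by
  constructor
  · intro h
    exact emb_injective h2 hω (h.trans rfl)
  · rintro rfl
    rfl

lemma emb_bijective [Fintype F] (hF : Fintype.card F = 4) : Function.Bijective (emb ω) := by
  rw [Fintype.bijective_iff_injective_and_card]
  exact ⟨emb_injective h2 hω, by simp [hF]⟩

end field

/-- The three spanning words as tables. -/
def T1 : Fin 6 → Fin 4 := ![2, 3, 3, 2, 3, 2]
/-- Second word. -/
def T2 : Fin 6 → Fin 4 := ![3, 2, 2, 3, 3, 2]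
/-- Third word. -/
def T3 : Fin 6 → Fin 4 := ![3, 2, 3, 2, 2, 3]

/-- Coefficient triples. -/
abbrev Tr : Type := Fin 4 × Fin 4 × Fin 4

/-- The word with coefficients `t`, as a table. -/
def wordT (t : Tr) : Fin 6 → Fin 4 := fun i =>
  addT (addT (mulT t.1 (T1 i)) (mulT t.2.1 (T2 i))) (mulT t.2.2 (T3 i))

lemma wordT_injective : Function.Injective wordT := by decide +kernel

/-- Weight of a table word. -/
def wtT (t : Tr) : ℕ := (univ.filter (fun i => wordT t i ≠ 0)).card

lemma wtT_cases : ∀ t : Tr, wtT t = 0 ∨ wtT t = 4 ∨ wtT t = 6 := by decide +kernel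
lemma wtT_zero : ∀ t : Tr, wtT t = 0 → t = 0 := by decide +kernel
lemma count4 : (univ.filter (fun t : Tr => wtT t = 4)).card = 45 := by decide +kernel
lemma count6 : (univ.filter (fun t : Tr => wtT t = 6)).card = 18 := by decide +kernel

section transfer

variable {F : Type*} [Field F] [Fintype F] [DecidableEq F] {ω : F}
variable (hF : Fintype.card F = 4) (hω : ω ^ 2 + ω + 1 = 0)

/-- The word over `F` with table coefficients. -/
def word (ω : F) (t : Tr) : Fin 6 → F := fun i => emb ω (wordT t i)

include hF hω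

lemma word_eq (t : Tr) : word ω t = emb ω t.1 • ![ω, ω ^ 2, ω ^ 2, ω, ω ^ 2, ω]
    + emb ω t.2.1 • ![ω ^ 2, ω, ω, ω ^ 2, ω ^ 2, ω] + emb ω t.2.2 • ![ω ^ 2, ω, ω ^ 2, ω, ω, ω ^ 2] := by
  have h2 := two_eq_zero (F := F) hF
  have hs := sq_eq h2 hω
  have e2 : emb ω 2 = ω := rfl
  have e3 : emb ω 3 = ω ^ 2 := hs.symm
  funext i
  simp only [word, wordT, emb_add h2 hω, emb_mul h2 hω, Pi.add_apply, Pi.smul_apply, smul_eq_mul]
  fin_cases i <;> simp only [T1, T2, T3] <;> simp [e2, e3]

lemma mem_hexacode_iff {x : Fin 6 → F} : x ∈ hexacode F ω ↔ ∃ t : Tr, word ω t = x := by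
  have h2 := two_eq_zero (F := F) hF
  have hb := emb_bijective h2 hω hF
  unfold hexacode
  rw [Submodule.mem_span_triple]
  constructor
  · rintro ⟨a, b, c, rfl⟩
    obtain ⟨a', rfl⟩ := hb.2 a
    obtain ⟨b', rfl⟩ := hb.2 b
    obtain ⟨c', rfl⟩ := hb.2 c
    exact ⟨(a', b', c'), word_eq hF hω _⟩
  · rintro ⟨t, rfl⟩
    exact ⟨_, _, _, (word_eq hF hω t).symm⟩

lemma word_injective : Function.Injective (word ω) := by
  have h2 := two_eq_zero (F := F) hF
  intro t t' h
  apply wordT_injective
  funext i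
  exact emb_injective h2 hω (congrFun h i)

lemma support_word (t : Tr) :
    (univ.filter fun i => word ω t i ≠ 0).card = wtT t := by
  have h2 := two_eq_zero (F := F) hF
  unfold wtT
  apply congrArg Finset.card
  ext i
  simp only [mem_filter, mem_univ, true_and]
  exact not_congr (emb_zero_iff h2 hω)

/-- Parametrisation of the hexacode. -/
noncomputable def hexaEquiv : Tr ≃ hexacode F ω :=
  Equiv.ofBijective (fun t => ⟨word ω t, (mem_hexacode_iff hF hω).2 ⟨t, rfl⟩⟩) (by
    constructor
    · intro t t' h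
      exact word_injective hF hω (congrArg Subtype.val h)
    · rintro ⟨x, hx⟩
      obtain ⟨t, rfl⟩ := (mem_hexacode_iff hF hω).1 hx
      exact ⟨t, rfl⟩)

theorem card_hexacode : Nat.card (hexacode F ω) = 64 := by
  rw [← Nat.card_congr (hexaEquiv hF hω)]
  simp [Nat.card_eq_fintype_card]

theorem ncard_weight (n : ℕ) :
    {x : Fin 6 → F | x ∈ hexacode F ω ∧ (univ.filter fun i => x i ≠ 0).card = n}.ncard
      = (univ.filter (fun t : Tr => wtT t = n)).card := by
  have : {x : Fin 6 → F | x ∈ hexacode F ω ∧ (univ.filter fun i => x i ≠ 0).card = n}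
      = word ω '' (↑(univ.filter (fun t : Tr => wtT t = n)) : Set Tr) := by
    ext x
    simp only [Set.mem_ofPred_eq, Set.mem_image, mem_coe, mem_filter, mem_univ, true_and]
    constructor
    · rintro ⟨hx, hn⟩
      obtain ⟨t, rfl⟩ := (mem_hexacode_iff hF hω).1 hx
      exact ⟨t, by rw [← support_word hF hω]; exact hn, rfl⟩
    · rintro ⟨t, ht, rfl⟩
      exact ⟨(mem_hexacode_iff hF hω).2 ⟨t, rfl⟩, by rw [support_word hF hω]; exact ht⟩
  rw [this, Set.ncard_image_of_injective _ (word_injective hF hω), Set.ncard_coe_finset]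

end transfer

end Cfsg.Agent.Lib.Hexa
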