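/-
Monomial automorphisms of the hexacode.
-/
import Cfsg.Agent.Lib.Hexa.Basic

set_option autoImplicit false
set_option maxRecDepth 100000
set_option linter.unusedSectionVars false

namespace Cfsg.Agent.Lib.Hexa

open Cfsg Finset

/-- Membership in the table code. -/
def inCodeT (w : Fin 6 → Fin 4) : Prop := ∃ t : Tr, wordT t = w

instance : DecidablePred inCodeT := fun w => by
  unfold inCodeT
  infer_instance

/-- The monomial action on table words. -/
def mono (σ : Equiv.Perm (Fin 6)) (ct : Fin 6 → Fin 3) (w : Fin 6 → Fin 4) : Fin 6 → Fin 4 :=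
  fun i => mulT (ct i).succ (w (σ.symm i))

/-- The check on the three spanning words. -/
def goodT (σ : Equiv.Perm (Fin 6)) (ct : Fin 6 → Fin 3) : Prop :=
  inCodeT (mono σ ct T1) ∧ inCodeT (mono σ ct T2) ∧ inCodeT (mono σ ct T3)

instance (σ : Equiv.Perm (Fin 6)) (ct : Fin 6 → Fin 3) : Decidable (goodT σ ct) := by
  unfold goodT
  infer_instance

/-- The table of lifts. -/
def witL : List ℕ := [0, 0, 0, 0, 0, 0, 0, 0, 405, 567, 45, 63, 0, 567, 0, 405, 420, 426, 0, 405, 567, 0, 624, 600, 0, 63, 132, 210, 0, 45, 0, 45, 552, 312, 63, 0, 0, 0, 567, 405, 63, 45, 0, 0, 0, 0, 0, 0, 405, 0, 0, 567, 312, 210, 567, 0, 405, 0, 552, 132, 45, 0, 600, 426, 0, 63, 63, 0, 624, 420, 45, 0, 0, 405, 0, 567, 132, 552, 567, 0, 0, 405, 600, 624, 0, 0, 0, 0, 0, 0, 405, 567, 0, 0, 366, 723, 420, 312, 0, 723, 0, 366, 426, 210, 0, 366, 723, 0, 0, 567, 405, 0, 210, 312, 405, 0, 567, 0, 426, 420, 567, 405, 0, 0, 723, 366, 0, 0, 0, 0, 0, 0, 624, 552, 366, 0, 0, 723, 600, 132, 723, 0,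 366, 0, 0, 45, 420, 624, 0, 63, 63, 0, 312, 552, 0, 45, 132, 600, 0, 366, 0, 723, 210, 426, 723, 0, 0, 366, 0, 0, 0, 0, 0, 0, 45, 63, 366, 723, 0, 0, 0, 63, 426, 600, 45, 0, 45, 0, 210, 132, 63, 0, 552, 624, 0, 723, 366, 0, 312, 420, 366, 0, 723, 0, 63, 45, 723, 366, 0, 0, 0, 0, 0, 0, 0, 0]

/-- The lift as a function. -/
def witF (a b c : Fin 6) : Fin 6 → Fin 3 :=
  fun i => ⟨(witL.getD (36 * a + 6 * b + c) 0 / 3 ^ (i : ℕ)) % 3, Nat.mod_lt _ (by norm_num)⟩

theorem wit_ok : ∀ a b c : Fin 6, a ≠ b → b ≠ c → a ≠ c →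
    goodT (Equiv.swap a b * Equiv.swap b c) (witF a b c) := by decide +kernel

theorem no_swap : ∀ ct : Fin 6 → Fin 3, ¬ goodT (Equiv.swap 0 1) ct := by decide +kernel

theorem scalar_check : ∀ ct : Fin 6 → Fin 3, goodT 1 ct → ∀ i j, ct i = ct j := by decide +kernel

section

variable {F : Type*} [Field F] [Fintype F] [DecidableEq F] {ω : F}
variable (hF : Fintype.card F = 4) (hω : ω ^ 2 + ω + 1 = 0)

/-- A table word in the field. -/
def wordF (ω : F) (w : Fin 6 → Fin 4) : Fin 6 → F := fun i => emb ω (w i)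

include hF hω

lemma wordF_mem_iff {w : Fin 6 → Fin 4} : wordF ω w ∈ hexacode F ω ↔ inCodeT w := by
  have h2 := two_eq_zero (F := F) hF
  rw [mem_hexacode_iff hF hω]
  constructor
  · rintro ⟨t, ht⟩
    refine ⟨t, ?_⟩
    funext i
    exact emb_injective h2 hω (congrFun ht i)
  · rintro ⟨t, rfl⟩
    exact ⟨t, rfl⟩

lemma gen1 : wordF ω T1 = ![ω, ω ^ 2, ω ^ 2, ω, ω ^ 2, ω] := by
  have h2 := two_eq_zero (F := F) hF
  have hs := sq_eq h2 hω
  have e2 : emb ω 2 = ω := rfl
  have e3 : emb ω 3 = ω ^ 2 := hs.symm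
  funext i
  fin_cases i <;> simp [wordF, T1, e2, e3]

lemma gen2 : wordF ω T2 = ![ω ^ 2, ω, ω, ω ^ 2, ω ^ 2, ω] := by
  have h2 := two_eq_zero (F := F) hF
  have hs := sq_eq h2 hω
  have e2 : emb ω 2 = ω := rfl
  have e3 : emb ω 3 = ω ^ 2 := hs.symm
  funext i
  fin_cases i <;> simp [wordF, T2, e2, e3]

lemma gen3 : wordF ω T3 = ![ω ^ 2, ω, ω ^ 2, ω, ω, ω ^ 2] := by
  have h2 := two_eq_zero (F := F) hF
  have hs := sq_eq h2 hω
  have e2 : emb ω 2 = ω := rfl
  have e3 : emb ω 3 = ω ^ 2 := hs.symm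
  funext i
  fin_cases i <;> simp [wordF, T3, e2, e3]

lemma exists_ct (c : Fin 6 → Fˣ) : ∃ ct : Fin 6 → Fin 3, ∀ i, (c i : F) = emb ω (ct i).succ := by
  have h2 := two_eq_zero (F := F) hF
  have hb := emb_bijective h2 hω hF
  have key : ∀ u : Fˣ, ∃ k : Fin 3, (u : F) = emb ω k.succ := by
    intro u
    obtain ⟨t, ht⟩ := hb.2 (u : F)
    have ht0 : t ≠ 0 := by
      rintro rfl
      exact u.ne_zero ht.symm
    obtain ⟨k, rfl⟩ := Fin.exists_succ_eq.2 ht0
    exact ⟨k, ht.symm⟩
  choose f hf using key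
  exact ⟨fun i => f (c i), fun i => hf (c i)⟩

lemma mono_word {σ : Equiv.Perm (Fin 6)} {c : Fin 6 → Fˣ} {ct : Fin 6 → Fin 3}
    (h : ∀ i, (c i : F) = emb ω (ct i).succ) (w : Fin 6 → Fin 4) :
    monomialMap σ c (wordF ω w) = wordF ω (mono σ ct w) := by
  have h2 := two_eq_zero (F := F) hF
  funext i
  simp only [monomialMap, wordF, mono]
  rw [h, emb_mul h2 hω]

theorem good_iff {σ : Equiv.Perm (Fin 6)} {c : Fin 6 → Fˣ} {ct : Fin 6 → Fin 3}
    (h : ∀ i, (c i : F) = emb ω (ct i).succ) :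
    (∀ x ∈ hexacode F ω, monomialMap σ c x ∈ hexacode F ω) ↔ goodT σ ct := by
  have hmem : ∀ w, (monomialMap σ c (wordF ω w) ∈ hexacode F ω) ↔ inCodeT (mono σ ct w) := by
    intro w
    rw [mono_word hF hω h, wordF_mem_iff hF hω]
  have hT1 : wordF ω T1 ∈ hexacode F ω := by
    rw [gen1 hF hω]
    exact Submodule.subset_span (by simp)
  have hT2 : wordF ω T2 ∈ hexacode F ω := by
    rw [gen2 hF hω]
    exact Submodule.subset_span (by simp)
  have hT3 : wordF ω T3 ∈ hexacode F ω := by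
    rw [gen3 hF hω]
    exact Submodule.subset_span (by simp)
  constructor
  · intro hP
    exact ⟨(hmem _).1 (hP _ hT1), (hmem _).1 (hP _ hT2), (hmem _).1 (hP _ hT3)⟩
  · rintro ⟨h1, h2, h3⟩ x hx
    unfold hexacode at hx
    induction hx using Submodule.span_induction with
    | mem x hx =>
      simp only [Set.mem_insert_iff, Set.mem_singleton_iff] at hx
      rcases hx with rfl | rfl | rfl
      · rw [← gen1 hF hω]
        exact (hmem _).2 h1
      · rw [← gen2 hF hω]
        exact (hmem _).2 h2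
      · rw [← gen3 hF hω]
        exact (hmem _).2 h3
    | zero =>
      have : monomialMap σ c (0 : Fin 6 → F) = 0 := by
        funext i
        simp [monomialMap]
      rw [this]
      exact Submodule.zero_mem _
    | add x y _ _ hx hy =>
      have : monomialMap σ c (x + y) = monomialMap σ c x + monomialMap σ c y := by
        funext i
        simp [monomialMap, mul_add]
      rw [this]
      exact Submodule.add_mem _ hx hy
    | smul a x _ hx =>
      have : monomialMap σ c (a • x) = a • monomialMap σ c x := by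
        funext i
        simp only [monomialMap, Pi.smul_apply, smul_eq_mul]
        ring
      rw [this]
      exact Submodule.smul_mem _ a hx

omit hF hω in
lemma mono_inj (σ : Equiv.Perm (Fin 6)) (c : Fin 6 → Fˣ) : Function.Injective (monomialMap σ c) := by
  intro x y h
  funext j
  have h1 := congrFun h (σ j)
  simp only [monomialMap, Equiv.symm_apply_apply] at h1
  exact mul_left_cancel₀ (c (σ j)).ne_zero h1

lemma finite_hex : Finite (hexacode F ω) := inferInstance

omit hF hω in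
lemma mono_surj {σ : Equiv.Perm (Fin 6)} {c : Fin 6 → Fˣ}
    (hP : ∀ x ∈ hexacode F ω, monomialMap σ c x ∈ hexacode F ω) :
    ∀ y ∈ hexacode F ω, ∃ x ∈ hexacode F ω, monomialMap σ c x = y := by
  intro y hy
  let f : hexacode F ω → hexacode F ω := fun x => ⟨monomialMap σ c x.1, hP x.1 x.2⟩
  have hf : Function.Injective f := fun a b hab =>
    Subtype.ext (mono_inj σ c (congrArg Subtype.val hab))
  obtain ⟨x, hx⟩ := (Finite.injective_iff_surjective.1 hf) ⟨y, hy⟩
  exact ⟨x.1, x.2, congrArg Subtype.val hx⟩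

/-- The image of the monomial group. -/
def HS (F : Type*) [Field F] [Fintype F] [DecidableEq F] (ω : F) : Subgroup (Equiv.Perm (Fin 6)) where
  carrier := {σ | ∃ c : Fin 6 → Fˣ, ∀ x ∈ hexacode F ω, monomialMap σ c x ∈ hexacode F ω}
  mul_mem' := by
    rintro σ τ ⟨c, hc⟩ ⟨d, hd⟩
    refine ⟨fun i => c i * d (σ.symm i), fun x hx => ?_⟩
    have e : monomialMap (σ * τ) (fun i => c i * d (σ.symm i)) x = monomialMap σ c (monomialMap τ d x) := by
      funext i
      simp only [monomialMap, Units.val_mul, mul_assoc]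
      rfl
    rw [e]
    exact hc _ (hd _ hx)
  one_mem' := by
    refine ⟨1, fun x hx => ?_⟩
    have e : monomialMap (1 : Equiv.Perm (Fin 6)) (1 : Fin 6 → Fˣ) x = x := by
      funext i
      have e1 : (1 : Equiv.Perm (Fin 6)).symm i = i := rfl
      simp only [monomialMap, e1, Pi.one_apply, Units.val_one, one_mul]
    rw [e]
    exact hx
  inv_mem' := by
    rintro σ ⟨c, hc⟩
    refine ⟨fun i => (c (σ i))⁻¹, fun y hy => ?_⟩
    obtain ⟨x, hx, rfl⟩ := mono_surj hc y hy
    have e : monomialMap σ⁻¹ (fun i => (c (σ i))⁻¹) (monomialMap σ c x) = x := by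
      funext i
      simp only [monomialMap]
      have e1 : σ⁻¹.symm i = σ i := rfl
      rw [e1, Equiv.symm_apply_apply, ← mul_assoc]
      simp
    rw [e]
    exact hx

theorem A6_le : alternatingGroup (Fin 6) ≤ HS F ω := by
  have h2 := two_eq_zero (F := F) hF
  have hb := emb_bijective h2 hω hF
  rw [← Equiv.Perm.closure_three_cycles_eq_alternating, Subgroup.closure_le]
  intro g hg
  have hne : g.support.Nonempty := by
    rw [← Finset.card_pos, hg.card_support]
    norm_num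
  obtain ⟨a, ha⟩ := hne
  have e := (hg.eq_swap_mul_swap_iff_mem_support).2 ha
  have hnd := (hg.nodup_iff_mem_support).2 ha
  simp only [List.nodup_cons, List.mem_cons, List.not_mem_nil, or_false, not_or, List.nodup_nil,
    and_true] at hnd
  obtain ⟨⟨h1, h3⟩, h4⟩ := hnd
  have hgood := wit_ok a (g a) (g (g a)) h1 h4.1 h3
  rw [← e] at hgood
  -- the units of the lift
  have hne0 : ∀ k : Fin 3, emb ω k.succ ≠ 0 := by
    intro k h0
    have := (emb_zero_iff h2 hω).1 h0
    exact Fin.succ_ne_zero k this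
  let c : Fin 6 → Fˣ := fun i => Units.mk0 (emb ω (witF a (g a) (g (g a)) i).succ) (hne0 _)
  exact ⟨c, (good_iff hF hω (c := c) (fun _ => rfl)).2 hgood⟩

theorem swap_not : Equiv.swap (0 : Fin 6) 1 ∉ HS F ω := by
  rintro ⟨c, hc⟩
  obtain ⟨ct, hct⟩ := exists_ct hF hω c
  exact no_swap ct ((good_iff hF hω hct).1 hc)

theorem HS_eq : HS F ω = alternatingGroup (Fin 6) := by
  apply le_antisymm _ (A6_le hF hω)
  intro σ hσ
  rw [Equiv.Perm.mem_alternatingGroup]
  rcases Int.units_eq_one_or (Equiv.Perm.sign σ) with h | h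
  · exact h
  · exfalso
    have h1 : σ * Equiv.swap (0 : Fin 6) 1 ∈ alternatingGroup (Fin 6) := by
      rw [Equiv.Perm.mem_alternatingGroup, map_mul, h, Equiv.Perm.sign_swap (by decide)]
      rfl
    have h2 := A6_le hF hω h1
    apply swap_not hF hω (F := F) (ω := ω)
    have h3 := (HS F ω).mul_mem ((HS F ω).inv_mem hσ) h2
    simpa using h3

theorem scalar_units (c : Fin 6 → Fˣ) (h : ∀ x ∈ hexacode F ω, monomialMap 1 c x ∈ hexacode F ω) :
    ∀ i j, c i = c j := by
  obtain ⟨ct, hct⟩ := exists_ct hF hω c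
  have hg := (good_iff hF hω hct).1 h
  intro i j
  apply Units.ext
  rw [hct, hct, scalar_check ct hg i j]

/-- The count. -/
theorem card_mono :
    Nat.card {f : Equiv.Perm (Fin 6) × (Fin 6 → Fˣ) //
      ∀ x ∈ hexacode F ω, monomialMap f.1 f.2 x ∈ hexacode F ω} = 1080 := by
  have hA : ∀ σ : alternatingGroup (Fin 6), ∃ c : Fin 6 → Fˣ,
      ∀ x ∈ hexacode F ω, monomialMap σ.1 c x ∈ hexacode F ω := fun σ => A6_le hF hω σ.2
  choose c0 hc0 using hA
  have hsc : ∀ (l : Fˣ) (σ : Equiv.Perm (Fin 6)) (c : Fin 6 → Fˣ) (x : Fin 6 → F),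
      monomialMap σ (fun i => l * c i) x = (l : F) • monomialMap σ c x := by
    intro l σ c x
    funext i
    simp only [monomialMap, Pi.smul_apply, smul_eq_mul, Units.val_mul, mul_assoc]
  let φ : alternatingGroup (Fin 6) × Fˣ → {f : Equiv.Perm (Fin 6) × (Fin 6 → Fˣ) //
      ∀ x ∈ hexacode F ω, monomialMap f.1 f.2 x ∈ hexacode F ω} := fun p =>
    ⟨(p.1.1, fun i => p.2 * c0 p.1 i), fun x hx => by
      show monomialMap p.1.1 (fun i => p.2 * c0 p.1 i) x ∈ hexacode F ω
      rw [hsc]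
      exact Submodule.smul_mem _ _ (hc0 p.1 x hx)⟩
  have hφ : Function.Bijective φ := by
    constructor
    · rintro ⟨σ, l⟩ ⟨σ', l'⟩ h
      have h1 : σ.1 = σ'.1 := congrArg (fun f => f.1.1) h
      have h2 : σ = σ' := Subtype.ext h1
      subst h2
      have h3 := congrFun (congrArg (fun f => f.1.2) h) 0
      have h4 : l = l' := mul_right_cancel h3
      rw [h4]
    · rintro ⟨⟨σ, c⟩, hc⟩
      have hσ : σ ∈ alternatingGroup (Fin 6) := by
        rw [← HS_eq hF hω (F := F) (ω := ω)]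
        exact ⟨c, hc⟩
      let σ' : alternatingGroup (Fin 6) := ⟨σ, hσ⟩
      let d : Fin 6 → Fˣ := fun i => c i * (c0 σ' i)⁻¹
      have hd : ∀ y ∈ hexacode F ω, monomialMap 1 d y ∈ hexacode F ω := by
        intro y hy
        obtain ⟨x, hx, rfl⟩ := mono_surj (hc0 σ') y hy
        have e : monomialMap 1 d (monomialMap σ (c0 σ') x) = monomialMap σ c x := by
          funext i
          simp only [monomialMap, d, Units.val_mul, Equiv.Perm.one_symm, Equiv.Perm.one_apply]
          have h5 : ((c0 σ' i)⁻¹ : Fˣ).1 * ((c0 σ' i : Fˣ) : F) = 1 := by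
            rw [← Units.val_mul, inv_mul_cancel, Units.val_one]
          calc (c i : F) * (((c0 σ' i)⁻¹ : Fˣ) : F) * (((c0 σ' i : Fˣ) : F) * x (σ.symm i))
              = (c i : F) * ((((c0 σ' i)⁻¹ : Fˣ) : F) * ((c0 σ' i : Fˣ) : F)) * x (σ.symm i) := by ring
            _ = (c i : F) * x (σ.symm i) := by rw [h5, mul_one]
        rw [e]
        exact hc x hx
      have hsc2 := scalar_units hF hω d hd
      refine ⟨(σ', d 0), ?_⟩
      apply Subtype.ext
      apply Prod.ext
      · rfl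
      · funext i
        show d 0 * c0 σ' i = c i
        rw [hsc2 0 i]
        simp [d]
  rw [← Nat.card_congr (Equiv.ofBijective φ hφ), Nat.card_prod]
  have h1 : Nat.card (alternatingGroup (Fin 6)) = 360 := by
    have h2 := two_mul_nat_card_alternatingGroup (α := Fin 6)
    have h4 : Nat.card (Fin 6) = 6 := by simp
    rw [Nat.card_perm, h4] at h2
    have h3 : Nat.factorial 6 = 720 := rfl
    omega
  have h2 : Nat.card Fˣ = 3 := by
    rw [Nat.card_eq_fintype_card, Fintype.card_units, hF]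
  rw [h1, h2]

end

end Cfsg.Agent.Lib.Hexa
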